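/-
Construction of extraspecial 2-groups from bilinear forms.
-/
import Cfsg.Agent.Lib.Extra2.Basic

set_option autoImplicit false

namespace CA.Ex2

open Cfsg Subgroup CA CA.Inv CA.Core

/-- bound for the order of elementary abelian subgroups -/
theorem EZ.card_le_of_cent {G : Type*} [Group G] [Finite G] {Q A B : Subgroup G} {z : G} (h : EZ Q z)
    (hB : B ≤ Q) (hA : A ≤ Q) (hab : IsElementaryAbelian 2 A)
    (hc : ∀ x ∈ Q, x ∈ 𝐂(B) → x * x = 1 → x ∈ B) : Nat.card A ≤ Nat.card B := by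
  have h1 := relIndex_cent_le_relIndex (p := 2) (T := B) (Z := A ⊓ B) (A := A) (K := zpowers z)
    (h.pg.to_le hB) inf_le_right (cents_of_abelian hab.1 inf_le_left le_rfl)
    (h.der ▸ commutator_mono hA hB) h.card_zp.le
  have h2 : 𝐂(B) ⊓ A ≤ A ⊓ B := fun x hx =>
    ⟨hx.2, hc x (hA hx.2) hx.1 (by rw [← pow_two]; exact hab.2 x hx.2)⟩
  rw [← card_inf_mul_relIndex 𝐂(B) A, ← card_mul_relIndex (inf_le_right : A ⊓ B ≤ B)]
  exact Nat.mul_le_mul (card_le_of_le' h2) h1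

theorem isExtraspecial_of_top {E : Type*} [Group E] (h : Extraspecial 2 (⊤ : Subgroup E)) :
    IsExtraspecial 2 E := by
  refine ⟨⟨h.isPGroup.of_equiv topEquiv, ?_, ?_⟩, ?_⟩
  · rw [← phi_top, ← center_top_eq]; exact h.phi_eq
  · rw [← center_top_eq]; exact h.der_eq
  · rw [← center_top_eq]; exact h.card_center

variable {V : Type} [AddCommGroup V]

/-- The central extension of `V` by `ZMod 2` defined by the cocycle `β`. -/
@[ext] structure Heis (β : V →+ V →+ ZMod 2) where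
  v : V
  a : ZMod 2

namespace Heis

variable {β : V →+ V →+ ZMod 2}

instance instMul : Mul (Heis β) := ⟨fun g h => ⟨g.v + h.v, g.a + h.a + β g.v h.v⟩⟩
instance instOne : One (Heis β) := ⟨⟨0, 0⟩⟩
instance instInv : Inv (Heis β) := ⟨fun g => ⟨-g.v, -g.a + β g.v g.v⟩⟩

@[simp] theorem mul_v (g h : Heis β) : (g * h).v = g.v + h.v := rfl
@[simp] theorem mul_a (g h : Heis β) : (g * h).a = g.a + h.a + β g.v h.v := rfl
@[simp] theorem one_v : (1 : Heis β).v = 0 := rfl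
@[simp] theorem one_a : (1 : Heis β).a = 0 := rfl
@[simp] theorem inv_v (g : Heis β) : g⁻¹.v = -g.v := rfl
@[simp] theorem inv_a (g : Heis β) : g⁻¹.a = -g.a + β g.v g.v := rfl

instance instGroup : Group (Heis β) := Group.ofLeftAxioms
  (fun a b c => by ext <;> simp [add_assoc]; ring)
  (fun a => by ext <;> simp)
  (fun a => by
    ext
    · simp
    · rw [mul_a, inv_a, inv_v, map_neg, AddMonoidHom.neg_apply, one_a]; ring)

/-- the underlying set -/
def equivProd : Heis β ≃ V × ZMod 2 := ⟨fun g => (g.v, g.a), fun p => ⟨p.1, p.2⟩, fun _ => rfl, fun _ => rfl⟩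

instance instFinite [Finite V] : Finite (Heis β) := Finite.of_equiv _ equivProd.symm

theorem card_eq : Nat.card (Heis β) = Nat.card V * 2 := by
  rw [Nat.card_congr equivProd, Nat.card_prod, Nat.card_zmod]

/-- preimage of a subgroup of `V` -/
def pre (β : V →+ V →+ ZMod 2) (W : AddSubgroup V) : Subgroup (Heis β) where
  carrier := {g | g.v ∈ W}
  mul_mem' := fun ha hb => W.add_mem ha hb
  one_mem' := W.zero_mem
  inv_mem' := fun ha => W.neg_mem ha

theorem mem_pre {W : AddSubgroup V} {g : Heis β} : g ∈ pre β W ↔ g.v ∈ W := Iff.rfl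

theorem card_pre (W : AddSubgroup V) : Nat.card (pre β W) = Nat.card W * 2 := by
  have e : pre β W ≃ W × ZMod 2 := ⟨fun g => (⟨g.1.v, g.2⟩, g.1.a), fun p => ⟨⟨p.1, p.2⟩, p.1.2⟩,
    fun _ => rfl, fun _ => rfl⟩
  rw [Nat.card_congr e, Nat.card_prod, Nat.card_zmod]

theorem comm_iff (g h : Heis β) : g * h = h * g ↔ β g.v h.v = β h.v g.v := by
  rw [Heis.ext_iff, mul_v, mul_v, mul_a, mul_a, add_comm g.v, add_comm g.a, add_right_inj]
  simp

theorem sq_iff (h2 : ∀ v : V, v + v = 0) (g : Heis β) : g * g = 1 ↔ β g.v g.v = 0 := by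
  rw [Heis.ext_iff, mul_v, mul_a, h2, CharTwo.add_self_eq_zero, zero_add]
  simp

theorem ez [Finite V] {n : ℕ} (hV : Nat.card V = 2 ^ n) (h2 : ∀ v : V, v + v = 0)
    (hnd : ∀ v : V, (∀ w, β v w = β w v) → v = 0) (hne : ∃ v : V, v ≠ 0) :
    ∃ z, EZ (⊤ : Subgroup (Heis β)) z := by
  have hZ : 𝐙((⊤ : Subgroup (Heis β))) = pre β ⊥ := by
    ext g
    rw [mem_pre, AddSubgroup.mem_bot, top_inf_eq, mem_cent_iff']
    refine ⟨fun h => hnd _ fun w => (comm_iff g ⟨w, 0⟩).1 (h _ trivial), fun h a _ => ?_⟩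
    rw [comm_iff, h]; simp
  refine exists_ez (extraspecial_of_le_center (IsPGroup.of_card (n := n + 1) (by
    rw [card_top, card_eq, hV, pow_succ])) (fun h => ?_) ?_ (by rw [hZ, card_pre]; simp))
  · obtain ⟨v, hv⟩ := hne
    exact hv (hnd v fun w => (comm_iff ⟨v, 0⟩ ⟨w, 0⟩).1 (abelian_iff'.1 h _ trivial _ trivial))
  · rw [hZ]
    refine phi_le_of_der_of_pow (p := 2) (comm_le_iff.2 fun a _ b _ => ?_) fun x _ => ?_
    · simp [mem_pre]
    · rw [pow_two]; simp [mem_pre, h2]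

theorem elemAb_pre (h2 : ∀ v : V, v + v = 0) {W : AddSubgroup V} (h : ∀ v ∈ W, ∀ w ∈ W, β v w = 0) :
    IsElementaryAbelian 2 (pre β W) :=
  ⟨abelian_iff'.2 fun a ha b hb => (comm_iff a b).2 (by rw [h _ ha _ hb, h _ hb _ ha]),
    fun a ha => by rw [pow_two, sq_iff h2]; exact h _ ha _ ha⟩

theorem rank_eq [Finite V] {n k : ℕ} (hV : Nat.card V = 2 ^ n) (h2 : ∀ v : V, v + v = 0)
    (hnd : ∀ v : V, (∀ w, β v w = β w v) → v = 0) (hne : ∃ v : V, v ≠ 0) {W : AddSubgroup V}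
    (hW : Nat.card W = 2 ^ k) (h : ∀ v ∈ W, ∀ w ∈ W, β v w = 0)
    (hc : ∀ v, (∀ w ∈ W, β v w = β w v) → β v v = 0 → v ∈ W) :
    IsExtraspecial 2 (Heis β) ∧ Nat.card (Heis β) = 2 ^ (n + 1) ∧
      sSup {k : ℕ | ∃ A : Subgroup (Heis β), IsElementaryAbelian 2 A ∧ Nat.card A = 2 ^ k} = k + 1 := by
  obtain ⟨z, hz⟩ := ez hV h2 hnd hne
  have hB : Nat.card (pre β W) = 2 ^ (k + 1) := by rw [card_pre, hW, pow_succ]
  refine ⟨isExtraspecial_of_top hz.es, by rw [card_eq, hV, pow_succ],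
    IsGreatest.csSup_eq ⟨⟨_, elemAb_pre h2 h, hB⟩, ?_⟩⟩
  rintro j ⟨A, hA, hj⟩
  have := hz.card_le_of_cent (B := pre β W) le_top le_top hA fun x _ hx hx2 =>
    hc _ (fun w hw => (comm_iff x ⟨w, 0⟩).1 (mem_cent_iff'.1 hx _ hw)) ((sq_iff h2 x).1 hx2)
  rw [hj, hB] at this
  exact (Nat.pow_le_pow_iff_right (by norm_num)).1 this

end Heis

/-- the standard space -/
abbrev StdV (m : ℕ) : Type := ((Fin m → ZMod 2) × (Fin m → ZMod 2)) × (ZMod 2 × ZMod 2)

/-- the standard cocycles -/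
def stdB (m : ℕ) (ε : ZMod 2) : StdV m →+ StdV m →+ ZMod 2 :=
  AddMonoidHom.mk' (fun v => AddMonoidHom.mk' (fun w => v.1.1 ⬝ᵥ w.1.2 + v.2.1 * w.2.2 +
    ε * (v.2.1 * w.2.1 + v.2.2 * w.2.2)) fun a b => by simp [dotProduct_add]; ring)
    fun a b => by ext1 w; simp [add_dotProduct]; ring

theorem stdB_apply (m : ℕ) (ε : ZMod 2) (v w : StdV m) : stdB m ε v w =
    v.1.1 ⬝ᵥ w.1.2 + v.2.1 * w.2.2 + ε * (v.2.1 * w.2.1 + v.2.2 * w.2.2) := rfl

theorem card_stdV (m : ℕ) : Nat.card (StdV m) = 2 ^ (2 * (m + 1)) := by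
  simp only [Nat.card_prod, Nat.card_fun, Nat.card_zmod, Nat.card_fin]
  ring

theorem stdV_two (m : ℕ) (v : StdV m) : v + v = 0 := by
  ext <;> simp [CharTwo.add_self_eq_zero]

theorem stdB_nd (m : ℕ) (ε : ZMod 2) (v : StdV m) (h : ∀ w, stdB m ε v w = stdB m ε w v) : v = 0 := by
  ext i
  · simpa [stdB_apply] using h ((0, Pi.single i 1), (0, 0))
  · simpa [stdB_apply] using (h ((Pi.single i 1, 0), (0, 0))).symm
  · simpa [stdB_apply] using h ((0, 0), (0, 1))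
  · simpa [stdB_apply] using (h ((0, 0), (1, 0))).symm

theorem exists_plus (m : ℕ) : ∃ (E : Type) (_ : Group E) (_ : Finite E), IsExtraspecial 2 E ∧
    Nat.card E = 2 ^ (2 * (m + 1) + 1) ∧
    sSup {k : ℕ | ∃ A : Subgroup E, IsElementaryAbelian 2 A ∧ Nat.card A = 2 ^ k} = m + 1 + 1 := by
  refine ⟨Heis (stdB m 0), inferInstance, inferInstance, Heis.rank_eq (card_stdV m) (stdV_two m)
    (stdB_nd m 0) ⟨((0, 0), (1, 0)), by simp⟩
    (W := ((⊤ : AddSubgroup _).prod ⊥).prod ((⊤ : AddSubgroup _).prod ⊥)) ?_ ?_ ?_⟩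
  · simp only [Nat.card_congr (AddSubgroup.prodEquiv _ _).toEquiv, Nat.card_prod]
    simp [pow_succ]
  · intro v hv w hw
    simp only [AddSubgroup.mem_prod, AddSubgroup.mem_bot] at hw
    simp [stdB_apply, hw.1.2, hw.2.2]
  · intro v h _
    simp only [AddSubgroup.mem_prod, AddSubgroup.mem_bot, AddSubgroup.mem_top, true_and] at h ⊢
    refine ⟨funext fun i => ?_, ?_⟩
    · simpa [stdB_apply] using (h ((Pi.single i 1, 0), (0, 0)) ⟨rfl, rfl⟩).symm
    · simpa [stdB_apply] using (h ((0, 0), (1, 0)) ⟨rfl, rfl⟩).symm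

theorem exists_minus (m : ℕ) : ∃ (E : Type) (_ : Group E) (_ : Finite E), IsExtraspecial 2 E ∧
    Nat.card E = 2 ^ (2 * (m + 1) + 1) ∧
    sSup {k : ℕ | ∃ A : Subgroup E, IsElementaryAbelian 2 A ∧ Nat.card A = 2 ^ k} = m + 1 := by
  refine ⟨Heis (stdB m 1), inferInstance, inferInstance, Heis.rank_eq (card_stdV m) (stdV_two m)
    (stdB_nd m 1) ⟨((0, 0), (1, 0)), by simp⟩
    (W := ((⊤ : AddSubgroup _).prod ⊥).prod ⊥) ?_ ?_ ?_⟩
  · simp only [Nat.card_congr (AddSubgroup.prodEquiv _ _).toEquiv, Nat.card_prod]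
    simp
  · intro v hv w hw
    simp only [AddSubgroup.mem_prod, AddSubgroup.mem_bot] at hw
    simp [stdB_apply, hw.1.2, hw.2]
  · intro v h h'
    simp only [AddSubgroup.mem_prod, AddSubgroup.mem_bot, AddSubgroup.mem_top, true_and] at h ⊢
    have h1 : v.1.2 = 0 := funext fun i => by
      simpa [stdB_apply] using (h ((Pi.single i 1, 0), (0, 0)) ⟨rfl, rfl⟩).symm
    refine ⟨h1, ?_⟩
    rw [stdB_apply, h1, dotProduct_zero] at h'
    have key : ∀ p : ZMod 2 × ZMod 2, 0 + p.1 * p.2 + 1 * (p.1 * p.1 + p.2 * p.2) = 0 → p = 0 := by decide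
    exact key _ h'

end CA.Ex2
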