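/-
Structure of groups with a large extraspecial 2-subgroup.
-/
import Cfsg.Agent.Lib.Extra2.Pair
import Cfsg.Agent.Lib.G.Transfer

set_option autoImplicit false

namespace CA.Ex2

open Cfsg Subgroup CA CA.Inv CA.Core CA.FStar

variable {G : Type*} [Group G] {Q K L T : Subgroup G} {z x y u : G}

theorem cents_of_perfect {X : Subgroup G} (hL : ⁅L, L⁆ = L) (h : ⁅L, X⁆ ≤ 𝐂(L)) : X ≤ 𝐂(L) := by
  have h1 : ⁅⁅L, X⁆, L⁆ = ⊥ := comm_eq_bot_iff.2 h
  have h2 : ⁅⁅X, L⁆, L⁆ = ⊥ := by rwa [commutator_comm X L]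
  have := three_subgroup h1 h2
  rwa [hL, comm_eq_bot_iff'] at this

theorem simple_of_qs (h : QS L) (hc : L ⊓ 𝐂(L) = ⊥) : IsSimpleGroup L := by
  haveI : Nontrivial L := (nontrivial_iff_ne_bot L).2 h.ne_bot
  refine ⟨fun N hN => ?_⟩
  rcases h.normal (normalIn_map_subtype N) with h1 | h1
  · left
    have : N.map L.subtype = ⊥ := le_bot_iff.1 (hc ▸ le_inf (map_subtype_le N) h1)
    rwa [map_eq_bot_iff_of_injective _ L.subtype_injective] at this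
  · right
    rw [← subgroupOf_map_subtype' N, h1, subgroupOf_self]

theorem proj_eq (hc : L ⊓ 𝐂(L) = ⊥) {a a' d d' : G} (ha : a ∈ L) (ha' : a' ∈ L) (hd : d ∈ 𝐂(L))
    (hd' : d' ∈ 𝐂(L)) (e : a * d = a' * d') : a = a' := by
  have h1 : a'⁻¹ * a = d' * d⁻¹ := by
    calc a'⁻¹ * a = a'⁻¹ * (a * d) * d⁻¹ := by group
      _ = d' * d⁻¹ := by rw [e]; group
  have : a'⁻¹ * a ∈ L ⊓ 𝐂(L) := mem_inf.2 ⟨mul_mem (inv_mem ha') ha, h1 ▸ mul_mem hd' (inv_mem hd)⟩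
  rw [hc, mem_bot, inv_mul_eq_one] at this
  exact this.symm

theorem not_sylow_zp2 [Finite G] (hL : ⁅L, L⁆ = L) (hz : orderOf z = 2) : ¬ SylowIn 2 (zpowers z) L :=
  fun h => by
    have := h.inf_der_eq_bot_of_cent (inf_le_right.trans (by rw [cent_zpowers]; exact norm_zp2_le hz))
    rw [hL, inf_eq_left.2 h.1, zpowers_eq_bot] at this
    exact ne_one_of_orderOf hz this

theorem LQ.mem_of_norm [Finite G] (h : LQ Q z) (hl : IsLargeExtraspecial Q) (hn : Q ≤ 𝐍(K))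
    (h1 : K ≠ ⊥) : z ∈ K := by
  have h2 : 2 ∣ Nat.card K := by
    by_contra h2
    exact h1 (hl.2.2.2 K (Nat.odd_iff.2 (by omega)) hn)
  have := inf_cent_ne_bot_of_dvd h.ez.pg hn h2
  rw [h.cent_eq, inf_comm] at this
  exact zpowers_le.1 (le_of_prime_card_of_inf_ne_bot (h.ez.card_zp ▸ Nat.prime_two) this)

theorem LQ.fit_le [Finite G] (hl : IsLargeExtraspecial Q) : fittingOf (⊤ : Subgroup G) ≤ pCore 2 G :=
  fit_le_of_forall fun p hp => by
    by_cases h2 : p = 2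
    · rw [h2, oP_top]
    haveI := Fact.mk hp
    rw [hl.2.2.2 (oP p ⊤) ?_ (le_top.trans (oP_normalIn p ⊤).2)]
    · exact bot_le
    obtain ⟨n, hn⟩ := IsPGroup.iff_card.1 (oP_isPGroup p (⊤ : Subgroup G))
    rw [hn]
    exact (hp.odd_of_ne_two h2).pow

theorem LQ.of_pCore_ne_bot [Finite G] (h : LQ Q z) (hl : IsLargeExtraspecial Q) (h1 : pCore 2 G ≠ ⊥) :
    IsMulCommutative (normalClosure ({z} : Set G)) ∧ generalizedFittingSubgroup G = pCore 2 G := by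
  have hn : 𝐙(pCore 2 G) ⊴ ⊤ := (center_charIn _).trans_normalIn (normalIn_top _)
  have hz : z ∈ 𝐙(pCore 2 G) := h.mem_of_norm hl (le_top.trans hn.2)
    (center_ne_bot_pgroup (pCore_isPGroup 2 G) h1)
  haveI := normalIn_top_iff.1 hn
  refine ⟨abelian_of_le (abelian_center _) (normalClosure_le_normal (by simpa using hz)), ?_⟩
  have hE : lay (⊤ : Subgroup G) ≤ 𝐂(pCore 2 G) := lay_cents_of_solvable (normalIn_top _).subnormalIn
    (solvable_of_pgroup Nat.prime_two (pCore_isPGroup 2 G))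
  have hEQ : lay (⊤ : Subgroup G) ≤ 𝐍(Q) := (hE.trans (cent_le_cent1 hz.1)).trans h.le_norm
  have h2 : lay ⊤ ⊓ Q ≤ 𝐂(lay (⊤ : Subgroup G)) := cents_symm (lay_cents_of_solvable
    ((normalIn_inf_of_norm hEQ).subnormalIn.trans (lay_normalIn ⊤).subnormalIn)
    (solvable_of_pgroup Nat.prime_two h.ez.pg.to_inf_right))
  have h3 := cents_of_perfect (lay_der ⊤)
    ((comm_le_inf (le_top.trans (lay_normalIn ⊤).2) hEQ).trans h2)
  have h4 : lay (⊤ : Subgroup G) = ⊥ := lay_eq_bot_of_solvable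
    (solvable_of_le (solvable_of_pgroup Nat.prime_two h.ez.pg) ((cents_symm h3).trans h.cent_le))
  rw [← fstar_top, fstar_eq, h4, bot_sup_eq]
  exact le_antisymm (LQ.fit_le hl) (oP_top (p := 2) (G := G) ▸ oP_le_fit Nat.prime_two ⊤)

section trivialFit
variable [Finite G] (hF : fittingOf (⊤ : Subgroup G) = ⊥)
include hF

theorem center_eq_bot_of_subnormal (hL : SubnormalIn L ⊤) : L ⊓ 𝐂(L) = ⊥ := by
  by_contra h1
  rcases exists_comp_or_fit ((center_normalIn L).subnormalIn.trans hL) h1 with ⟨K, h2, h3⟩ | h2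
  · exact h3.qs.not_le_of_solvable (solvable_of_abelian (abelian_center L)) h2
  · exact h2 (by rw [hF, inf_bot_eq])

theorem LQ.comp_trans (h : LQ Q z) (hl : IsLargeExtraspecial Q) (hL : CompIn L ⊤) (hK : CompIn K ⊤) :
    ∃ q ∈ Q, K = CA.cj q L := by
  have key : ∀ {L K : Subgroup G}, CompIn L ⊤ → CompIn K ⊤ → (∀ q ∈ Q, K ≠ CA.cj q L) → z ∈ 𝐂(K) := by
    intro L K hL hK hne
    have h1 : z ∈ sSup {A | ∃ q ∈ Q, A = CA.cj q L} := by
      refine h.mem_of_norm hl (norms_sSup_of_cj ?_) fun e => hL.qs.ne_bot (le_bot_iff.1 (e ▸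
        le_sSup ⟨1, one_mem _, by simp⟩))
      rintro g hg _ ⟨q, hq, rfl⟩
      exact ⟨g * q, mul_mem hg hq, cj_cj _ _ _⟩
    refine (sSup_le ?_ : _ ≤ 𝐂(K)) h1
    rintro _ ⟨q, hq, rfl⟩
    have := hL.cj q
    rw [cj_top] at this
    exact (this.eq_or_cents hK).resolve_left (hne q hq).symm
  by_contra hne
  push Not at hne
  have h1 : z ∈ 𝐂(lay (⊤ : Subgroup G)) := by
    rw [mem_cent_iff_le_cent1, lay_le_iff]
    intro A hA
    rw [← mem_cent_iff_le_cent1]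
    by_cases e : ∀ q ∈ Q, A ≠ CA.cj q L
    · exact key hL hA e
    push Not at e
    obtain ⟨q, hq, rfl⟩ := e
    refine key hK hA fun r hr e => hne (r⁻¹ * q) (mul_mem (inv_mem hr) hq) ?_
    rw [cj_mul, e, cj_inv_cj]
  have h2 : z ∈ lay (⊤ : Subgroup G) := h.mem_of_norm hl (le_top.trans (lay_normalIn ⊤).2)
    fun e => hL.qs.ne_bot (le_bot_iff.1 (e ▸ hL.le_lay))
  have := center_eq_bot_of_subnormal hF (lay_normalIn ⊤).subnormalIn ▸ mem_inf.2 ⟨h2, h1⟩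
  exact h.ez.ne_one (mem_bot.1 this)

end trivialFit

theorem LQ.structure_thm [Finite G] (h : LQ Q z) (hl : IsLargeExtraspecial Q) {M : Subgroup G}
    (hM : M = normalClosure ({z} : Set G)) :
    (IsMulCommutative M ∧ generalizedFittingSubgroup G = pCore 2 G) ∨
    (M = generalizedFittingSubgroup G ∧ IsSimpleGroup M ∧ ¬ IsMulCommutative M) ∨
    (M = generalizedFittingSubgroup G ∧ ∃ (L : Subgroup G) (u : G), u ∈ Q ∧ IsSimpleGroup L ∧
      ¬ IsMulCommutative L ∧ L ⊓ CA.cj u L = ⊥ ∧ L ≤ 𝐂(CA.cj u L) ∧ L ⊔ CA.cj u L = M ∧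
      ∃ z₁ ∈ L, z = z₁ * (u * z₁ * u⁻¹) ∧ SylowIn 2 (𝐂[z₁] ⊓ L) L ∧ phi (𝐂[z₁] ⊓ L) ≤ zpowers z₁ ∧
        Q ≠ oP 2 𝐂[z]) := by
  by_cases h1 : pCore 2 G = ⊥
  swap
  · exact Or.inl (hM ▸ h.of_pCore_ne_bot hl h1)
  right
  have hF : fittingOf (⊤ : Subgroup G) = ⊥ := le_bot_iff.1 (h1 ▸ LQ.fit_le hl)
  have hE : generalizedFittingSubgroup G = lay ⊤ := by rw [← fstar_top, fstar_eq, hF, sup_bot_eq]
  haveI hMn : M.Normal := hM ▸ normalClosure_normal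
  have hzM : z ∈ M := hM ▸ subset_normalClosure rfl
  obtain ⟨L, hLM, hL⟩ := (exists_comp_or_fit (normalIn_top M).subnormalIn
    (ne_bot_of_mem hzM h.ez.ne_one)).resolve_right (by rw [hF, inf_bot_eq]; simp)
  have hcomp : ∀ g, CompIn (CA.cj g L) ⊤ := fun g => by simpa using hL.cj g
  have hzE : z ∈ lay (⊤ : Subgroup G) := h.mem_of_norm hl (le_top.trans (lay_normalIn ⊤).2)
    fun e => hL.qs.ne_bot (le_bot_iff.1 (e ▸ hL.le_lay))
  have hME : M = lay ⊤ := by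
    haveI := normalIn_top_iff.1 (lay_normalIn (⊤ : Subgroup G))
    refine le_antisymm (hM ▸ normalClosure_le_normal (by simpa using hzE)) (lay_le_iff.2 fun K hK => ?_)
    obtain ⟨q, -, rfl⟩ := h.comp_trans hF hl hL hK
    exact cj_le_of_mem_normalizer hLM ((normalIn_top M).2 trivial)
  have hc := center_eq_bot_of_subnormal hF hL.1
  have hs := simple_of_qs hL.qs hc
  have hna : ¬ IsMulCommutative L := fun e => hL.qs.not_cents (abelian_iff.1 e)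
  by_cases hQL : Q ≤ 𝐍(L)
  · left
    have : M = L := le_antisymm (hME ▸ lay_le_iff.2 fun K hK => by
      obtain ⟨q, hq, rfl⟩ := h.comp_trans hF hl hL hK
      exact (cj_eq_of_mem_normalizer (hQL hq)).le) hLM
    exact ⟨hME.trans hE.symm, this ▸ hs, this ▸ hna⟩
  right
  obtain ⟨u, hu, huL⟩ := SetLike.not_le_iff_exists.1 hQL
  have hcen : ∀ g, g ∉ 𝐍(L) → CA.cj g L ≤ 𝐂(L) := fun g hg =>
    ((hcomp g).eq_or_cents hL).resolve_left fun e => hg (mem_normalizer_iff_cj.2 e)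
  have hconj : ∀ g, g ∉ 𝐍(L) → ∀ c ∈ L, g * c * g⁻¹ ∈ 𝐂(L) := fun g hg c hc =>
    hcen g hg (mem_cj'.2 ⟨c, hc, rfl⟩)
  have hzN : zpowers z ≤ 𝐍(L) := zpowers_le.2 (hL.lay_le_norm hzE)
  -- decompose z
  set D := sSup {K | CompIn K ⊤ ∧ K ≠ L} with hD
  have hDC : D ≤ 𝐂(L) := sSup_le fun K hK => (hK.1.eq_or_cents hL).resolve_left hK.2
  have hED : lay ⊤ ≤ L ⊔ D := lay_le_iff.2 fun K hK => by
    by_cases e : K = L
    · exact e ▸ le_sup_left
    · exact le_sup_of_le_right (le_sSup ⟨hK, e⟩)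
  obtain ⟨z₁, hz₁, d, hd, hzd⟩ := (mem_sup_of_norm_right (norms_of_cents hDC)).1 (hED hzE)
  have hdC := hDC hd
  have hcd : ∀ c ∈ L, c * d = d * c := mem_cent_iff.1 hdC
  have hz1 : z₁ ≠ 1 := by
    rintro rfl
    rw [one_mul] at hzd
    have h2 : z ∈ 𝐂(lay (⊤ : Subgroup G)) := by
      rw [mem_cent_iff_le_cent1, lay_le_iff]
      intro K hK
      obtain ⟨q, hq, rfl⟩ := h.comp_trans hF hl hL hK
      rw [← h.ez.conj_z hq, ← cj_centralizer_singleton]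
      exact cj_mono q (mem_cent_iff_le_cent1.1 (hzd ▸ hdC))
    have := center_eq_bot_of_subnormal hF (lay_normalIn ⊤).subnormalIn ▸ mem_inf.2 ⟨hzE, h2⟩
    exact h.ez.ne_one (mem_bot.1 this)
  -- projection of elements of `⟨z⟩`
  have hproj : ∀ a ∈ L, ∀ e ∈ 𝐂(L), a * e ∈ zpowers z → a = 1 ∨ a = z₁ := fun a ha e he hm =>
    (h.ez.mem_zp.1 hm).imp (fun e1 => proj_eq hc ha (one_mem _) he (one_mem _) (by rw [e1, mul_one]))
      fun e1 => proj_eq hc ha hz₁ he hdC (e1.trans hzd.symm)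
  have hz2 : z₁ * z₁ = 1 := by
    refine proj_eq hc (mul_mem hz₁ hz₁) (one_mem _) (mul_mem hdC hdC) (one_mem _) ?_
    rw [mul_one, ← h.ez.sq, ← hzd]
    calc z₁ * z₁ * (d * d) = z₁ * (z₁ * d) * d := by group
      _ = z₁ * (d * z₁) * d := by rw [hcd _ hz₁]
      _ = _ := by group
  have ho1 := orderOf_eq_two hz2 hz1
  have hCeq : 𝐂[z₁] ⊓ L = 𝐂[z] ⊓ L := by
    ext c
    simp only [mem_inf, mem_cent1_iff]
    refine and_congr_left fun hc => ?_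
    rw [← hzd, mul_assoc z₁, ← hcd c hc, ← mul_assoc, ← mul_assoc, mul_left_inj]
  -- the commutators `[c, u]`
  have hw : ∀ q ∈ Q, ∀ c ∈ 𝐂[z₁] ⊓ L, c * (q * c⁻¹ * q⁻¹) ∈ Q := fun q hq c hc => by
    have := mul_mem (conj_mem_of_mem_normalizer (h.le_norm (hCeq ▸ hc).1) hq) (inv_mem hq)
    simpa only [mul_assoc] using this
  have hsq : ∀ c ∈ 𝐂[z₁] ⊓ L, c ^ 2 ∈ zpowers z₁ := fun c hc => by
    have e1 := hconj u huL _ (inv_mem hc.2)
    have e2 := h.ez.sq_mem (hw u hu c hc)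
    rw [pow_two, mem_zp2 hz2]
    refine hproj _ (mul_mem hc.2 hc.2) _ (mul_mem e1 e1) ?_
    convert e2 using 1
    generalize u * c⁻¹ * u⁻¹ = e at e1 ⊢
    calc c * c * (e * e) = c * (c * e) * e := by group
      _ = c * (e * c) * e := by rw [mem_cent_iff.1 e1 c hc.2]
      _ = _ := by group
  have hder : ⁅𝐂[z₁] ⊓ L, 𝐂[z₁] ⊓ L⁆ ≤ zpowers z₁ := comm_le_iff.2 fun a ha b hb => by
    have e1 := hconj u huL _ (inv_mem ha.2)
    have e1' := hconj u huL _ (inv_mem hb.2)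
    have e2 := h.ez.comm_mem (hw u hu a ha) (hw u hu b hb)
    rw [mem_zp2 hz2]
    refine hproj _ (der_le L (comm_mem ha.2 hb.2)) _ (der_le _ (comm_mem e1 e1')) ?_
    convert e2 using 1
    generalize u * a⁻¹ * u⁻¹ = e at e1 ⊢
    generalize u * b⁻¹ * u⁻¹ = f at e1' ⊢
    have c1 : ∀ x ∈ 𝐂(L), ∀ y ∈ L, ∀ t, x * (y * t) = y * (x * t) := fun x hx y hy t => by
      rw [← mul_assoc, ← mem_cent_iff.1 hx y hy, mul_assoc]
    have c2 : ∀ x ∈ 𝐂(L), ∀ y ∈ L, x * y = y * x := fun x hx y hy => (mem_cent_iff.1 hx y hy).symm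
    have ha' : a ∈ L := ha.2
    have hb' : b ∈ L := hb.2
    simp only [mul_inv_rev, mul_assoc]
    rw [c2 _ (inv_mem e1') _ (inv_mem hb'), c1 _ e1 _ hb', c1 _ (inv_mem e1) _ (inv_mem ha'),
      c1 _ e1' _ (inv_mem ha'), c1 _ e1 _ (inv_mem ha'), c1 _ (inv_mem e1) _ (inv_mem hb'),
      c1 _ e1' _ (inv_mem hb'), c1 _ e1 _ (inv_mem hb')]
  have hpg : IsPGroup 2 ↥(𝐂[z₁] ⊓ L) := isPGroup_of_forall fun c hc => ⟨2, by
    have := (mem_zp2 hz2).1 (hsq c hc)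
    rw [show (2 : ℕ) ^ 2 = 2 * 2 by norm_num, pow_mul]
    rcases this with e | e
    · rw [e, one_pow]
    · rw [e, pow_two, hz2]⟩
  have hsyl : SylowIn 2 (𝐂[z₁] ⊓ L) L := by
    obtain ⟨T, hT, hQT⟩ := exists_sylowIn_ge' Nat.prime_two h.ez.pg (le_top : Q ≤ ⊤)
    have h2 : SylowIn 2 (T ⊓ L) L := hT.inf_subnormal hL.1
    have h3 : T ⊓ L ≤ 𝐂[z₁] ⊓ L := hCeq ▸ inf_le_inf_right _
      (le_normalizer.trans (h.norm_le_of_ge (hT.isPGroup Nat.prime_two) hQT))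
    refine sylowIn_mk Nat.prime_two inf_le_right hpg fun hd => h2.not_dvd Nat.prime_two ?_
    rw [← relIndex_mul_relIndex _ _ _ h3 inf_le_right]
    exact hd.mul_left _
  have hnot : ¬ ∀ c ∈ 𝐂[z₁] ⊓ L, c = 1 ∨ c = z₁ := fun hall => not_sylow_zp2 hL.qs.der ho1 (by
    rw [← le_antisymm (fun c hc => (mem_zp2 hz2).2 (hall c hc))
      (zpowers_le.2 (mem_inf.2 ⟨self_mem_cent1 z₁, hz₁⟩) : zpowers z₁ ≤ 𝐂[z₁] ⊓ L)]
    exact hsyl)
  -- if `c e ∈ Q` is conjugated into `C(L)` by an element of `Q` then `c ∈ ⟨z₁⟩`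
  have hkey : ∀ c ∈ L, ∀ e ∈ 𝐂(L), c * e ∈ Q → ∀ r ∈ Q, r * (c * e) * r⁻¹ ∈ 𝐂(L) → c = 1 ∨ c = z₁ :=
    fun c hc e he hq r hr hm => by
      have := h.ez.comm_mem hr (inv_mem hq)
      refine hproj c hc (e * (r * (c * e) * r⁻¹)⁻¹) (mul_mem he (inv_mem hm)) ?_
      have h2 := h.ez.comm_mem hq hr
      convert h2 using 1; group
  have htwo : ∀ K, CompIn K ⊤ → K = L ∨ K = CA.cj u L := fun K hK => by
    obtain ⟨r, hr, rfl⟩ := h.comp_trans hF hl hL hK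
    by_contra hne
    push Not at hne
    have hrL : r ∉ 𝐍(L) := fun e => hne.1 (mem_normalizer_iff_cj.1 e)
    have hruL : r * u ∉ 𝐍(L) := fun e => hne.2 (by
      have e1 : r⁻¹ * u ∈ 𝐍(L) := by
        have := mul_mem (inv_mem (hzN (h.ez.sq_mem hr))) e
        convert this using 1; group
      rw [mem_normalizer_iff_cj, cj_mul, cj_eq_iff, inv_inv] at e1
      exact e1.symm)
    refine hnot fun c hc => hkey c hc.2 _ (hconj u huL _ (inv_mem hc.2)) (hw u hu c hc) r hr ?_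
    have := mul_mem (hconj r hrL c hc.2) (hconj _ hruL _ (inv_mem hc.2))
    convert this using 1; group
  have hDu : D ≤ CA.cj u L := sSup_le fun K hK => ((htwo K hK.1).resolve_left hK.2).le
  have hLu : L ⊔ CA.cj u L = M := le_antisymm
    (sup_le hLM (cj_le_of_mem_normalizer hLM ((normalIn_top M).2 trivial)))
    (hME ▸ hED.trans (sup_le_sup_left hDu _))
  have hzu : z = z₁ * (u * z₁ * u⁻¹) := by
    have e1 : u * d * u⁻¹ ∈ L := by
      have := hDu hd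
      rw [← cj_eq_of_mem_normalizer (hzN (h.ez.sq_mem hu)), cj_mul]
      exact mem_cj'.2 ⟨d, this, rfl⟩
    have e2 := hconj u huL _ hz₁
    have e3 : u * d * u⁻¹ * (u * z₁ * u⁻¹) = z₁ * d := by
      rw [hzd, ← h.ez.conj_z hu, ← hzd, hcd _ hz₁]; group
    have e4 := proj_eq hc e1 hz₁ e2 hdC e3
    rw [e4, mul_right_inj] at e3
    rw [e3, hzd]
  refine ⟨hME.trans hE.symm, L, u, hu, hs, hna, le_bot_iff.1 (hc ▸ inf_le_inf_left _ (hcen u huL)),
    cents_symm (hcen u huL), hLu, z₁, hz₁, hzu, hsyl, phi_le_of_der_of_pow hder hsq, fun hQ => ?_⟩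
  have h2 : 𝐂[z] ⊓ M ≤ Q := by
    rw [hQ]
    refine Core.le_oP (normalIn_inf_of_norm (le_top.trans (normalIn_top M).2)) (isPGroup_of_forall ?_)
    rintro y ⟨hy1, hy2⟩
    obtain ⟨a, ha, b, hb, rfl⟩ := (mem_sup_of_norm_right (norms_of_cents (hcen u huL))).1 (hLu ▸ hy2)
    have hbC := hcen u huL hb
    have e2 := hconj u huL _ hz₁
    have e0 := mem_cent1_iff.1 hy1
    rw [hzu] at e0
    set z₂ := u * z₁ * u⁻¹ with hz₂
    have e1 : a * z₁ * (b * z₂) = z₁ * a * (z₂ * b) := by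
      calc a * z₁ * (b * z₂) = a * (z₁ * b) * z₂ := by group
        _ = z₁ * (z₂ * a) * b := by rw [mem_cent_iff.1 hbC z₁ hz₁]; simpa only [mul_assoc] using e0
        _ = _ := by rw [← mem_cent_iff.1 e2 a ha]; group
    have e3 := proj_eq hc (mul_mem ha hz₁) (mul_mem hz₁ ha) (mul_mem hbC e2) (mul_mem e2 hbC) e1
    rw [e3, mul_right_inj] at e1
    obtain ⟨k, hk⟩ := exists_pow_of_mem hpg (mem_inf.2 ⟨mem_cent1_iff.2 e3, ha⟩)
    obtain ⟨l, hl⟩ := exists_pow_of_mem (isPGroup_cj hpg u) (x := b) (by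
      rw [cj_inf, cj_centralizer_singleton]; exact mem_inf.2 ⟨mem_cent1_iff.2 e1, hb⟩)
    refine ⟨k + l, ?_⟩
    rw [(show Commute a b from mem_cent_iff.1 hbC a ha).mul_pow, pow_add, pow_mul, hk, mul_comm,
      pow_mul, hl]
    simp
  refine hnot fun c hc => hkey c hc.2 1 (one_mem _) ?_ u hu ?_
  · rw [mul_one]; exact h2 (mem_inf.2 ⟨(hCeq ▸ hc).1, hLM hc.2⟩)
  · rw [mul_one]; exact hconj u huL c hc.2

/-- if `Q = O₂(C(z))` and `C(z) ≤ ⟨z^G⟩` then `G` is simple -/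
theorem LQ.simple_of_le [Finite G] (h : LQ Q z) (hl : IsLargeExtraspecial Q) (hQ : Q = oP 2 𝐂[z])
    (hM : 𝐂[z] ≤ normalClosure ({z} : Set G)) : IsSimpleGroup G := by
  rcases h.structure_thm hl rfl with h1 | h1 | ⟨-, _, _, -, -, -, -, -, -, _, -, -, -, -, h1⟩
  · exact absurd (abelian_of_le h1.1 (h.ez.le_cent1.trans hM)) h.ez.not_abelian
  · have h2 := h.frattini (normalIn_top _) (h.ez.le_cent1.trans hM)
    rw [top_inf_eq, sup_eq_left.2 hM] at h2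
    haveI := h1.2.1
    haveI : Nontrivial G := ⟨⟨z, 1, h.ez.ne_one⟩⟩
    exact IsSimpleGroup.isSimpleGroup_of_surjective (normalClosure ({z} : Set G)).subtype
      (fun g => ⟨⟨g, h2 ▸ mem_top g⟩, rfl⟩)
  · exact absurd hQ h1

end CA.Ex2
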