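/-
Large extraspecial subgroups in sections.
-/
import Cfsg.Agent.Lib.Extra2.Struct

set_option autoImplicit false

namespace CA.Ex2

open Cfsg Subgroup CA CA.Inv CA.Core

variable {G : Type*} [Group G] {G' : Type*} [Group G'] {D Q R K A : Subgroup G} {z x y q c t : G}

theorem pker_mk' {M : Subgroup G} (hA : A ≤ M) [(A.subgroupOf M).Normal] :
    pker (QuotientGroup.mk' (A.subgroupOf M)) = A := by
  rw [pker, pcomap, MonoidHom.comap_bot, QuotientGroup.ker_mk', map_subgroupOf_eq_of_le hA]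

theorem pel_eq_iff (f : D →* G') (hx : x ∈ D) (hy : y ∈ D) : pel f x = pel f y ↔ x * y⁻¹ ∈ pker f := by
  rw [mem_pker, pel_mul f hx (inv_mem hy), pel_inv f hy, mul_inv_eq_one,
    and_iff_right (mul_mem hx (inv_mem hy))]

theorem exists_pel (f : D →* G') (hf : Function.Surjective f) (y : G') : ∃ m ∈ D, pel f m = y := by
  obtain ⟨m, rfl⟩ := hf y
  exact ⟨m, m.2, pel_coe f m⟩

theorem pel_comm_iff (f : D →* G') (hx : x ∈ D) (hy : y ∈ D) :
    pel f x * pel f y = pel f y * pel f x ↔ x * y * x⁻¹ * y⁻¹ ∈ pker f := by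
  rw [← pel_mul f hx hy, ← pel_mul f hy hx, pel_eq_iff f (mul_mem hx hy) (mul_mem hy hx), mul_inv_rev,
    ← mul_assoc]

theorem lq_pmap [Finite G] [Finite G'] (f : D →* G') (hf : Function.Surjective f) (h : EZ Q z)
    (hRQ : R ≤ Q) (hR : R ≤ D) (hz : z ∈ R) (hz1 : z ∉ pker f) (hna : ¬ IsMulCommutative R)
    (hc : ∀ m ∈ D, (∀ r ∈ R, m * r * m⁻¹ * r⁻¹ ∈ pker f) → m ∈ pker f ⊔ zpowers z)
    (hn : ∀ m ∈ D, m * z * m⁻¹ * z⁻¹ ∈ pker f → ∃ m' ∈ D ⊓ 𝐍(R), pel f m' = pel f m) :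
    LQ (pmap f R) (pel f z) := by
  have hzD := hR hz
  have hz1' : pel f z ≠ 1 := fun e => hz1 (mem_pker.2 ⟨hzD, e⟩)
  have ho : orderOf (pel f z) = 2 := orderOf_eq_two (by rw [← pel_mul f hzD hzD, h.sq]; simp) hz1'
  have hC : 𝐂(pmap f R) = zpowers (pel f z) := by
    refine le_antisymm (fun y hy => ?_) (zpowers_le.2 (pmap_cent f R
      (pel_mem_pmap f (cent_mono hRQ h.memC))))
    obtain ⟨m, hm, rfl⟩ := exists_pel f hf y
    have := pel_mem_pmap f (hc m hm fun r hr => (pel_comm_iff f hm (hR hr)).1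
      (mem_cent_iff'.1 hy _ (pel_mem_pmap f hr)))
    rwa [pmap_pker_sup f (zpowers_le.2 hzD), pmap_zpowers f hzD] at this
  have hZ : 𝐙(pmap f R) = zpowers (pel f z) := by
    rw [hC, inf_eq_right, zpowers_le]; exact pel_mem_pmap f hz
  have hp := h.pg.to_le hRQ
  refine ⟨⟨extraspecial_of_le_center (pgroup_pmap hp f) ?_ ?_ (hZ ▸ card_zp2 ho), hZ⟩,
    hC ▸ zpowers_le.2 (pel_mem_pmap f hz), fun y hy => ?_⟩
  · rw [abelian_pmap_iff hR]
    exact fun e => hz1 (e (h.mem_of_not_abelian hRQ hna))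
  · rw [← pmap_phi_pgroup f hp hR, hZ, ← pmap_zpowers f hzD, ← h.cen, ← h.es.phi_eq]
    exact pmap_mono f (phi_mono_pgroup h.pg hRQ)
  · obtain ⟨m, hm, rfl⟩ := exists_pel f hf y
    obtain ⟨m', hm', e⟩ := hn m hm ((pel_comm_iff f hm hzD).1 (mem_cent1_iff.1 hy))
    rw [← e]
    exact pmap_norm f R (pel_mem_pmap f hm'.2)

theorem large_pmap [Finite G'] (f : D →* G') (h : LQ (pmap f R) (pel f z)) (hz : z ∈ D) (hx : x ∈ R)
    (hy : y ∈ D) (e : y * x * y⁻¹ = z) (hxz : x * z⁻¹ ∉ pker f) : IsLargeExtraspecial (pmap f R) := by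
  have hxD : x ∈ D := by rw [← conj_inv_of e]; exact mul_mem (mul_mem (inv_mem hy) hz) hy
  have e1 : pel f y⁻¹ * pel f z * (pel f y⁻¹)⁻¹ = pel f x := by
    rw [← pel_conj f (inv_mem hy) hz, inv_inv, conj_inv_of e]
  exact h.large_of_conj (g := pel f y⁻¹) (e1 ▸ pel_mem_pmap f hx)
    (by rw [e1, Ne, pel_eq_iff f hxD hz]; exact hxz)

theorem swap_of (hz : z * z = 1) (hx : x * x = 1) (h : x * z = z * x) (hqz : q * z * q⁻¹ = z)
    (hqx : q * x * q⁻¹ = x * z) (hcx : c * x * c⁻¹ = x) (hcz : c * z * c⁻¹ = z * x) :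
    (c * q * c⁻¹) * x * (c * q * c⁻¹)⁻¹ = z := by
  calc c * q * c⁻¹ * x * (c * q * c⁻¹)⁻¹ = c * (q * (c⁻¹ * x * c) * q⁻¹) * c⁻¹ := by group
    _ = (c * x * c⁻¹) * (c * z * c⁻¹) := by rw [conj_inv_of hcx, hqx]; group
    _ = z := by rw [hcx, hcz, ← h, mul_mul_cancel hx]

theorem le_sup_of_not_four [Finite G] (hz : orderOf z = 2) (hzD : z ∈ D) (h4 : ¬ 4 ∣ Nat.card D) :
    D ≤ (oddCore D).map D.subtype ⊔ zpowers z := by
  have hs : SylowIn 2 (zpowers z) D := sylowIn_mk Nat.prime_two (zpowers_le.2 hzD)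
    (isPGroup_two_zpowers (mul_self_of_orderOf hz)) fun hd => h4 (by
      rw [← card_mul_relIndex (zpowers_le.2 hzD), card_zp2 hz]
      exact Nat.mul_dvd_mul_left 2 hd)
  have := (hs.sdprod_of_cent (inf_le_right.trans (by rw [cent_zpowers]; exact norm_zp2_le hz))).1
  rw [piCoreOf_compl_singleton Nat.prime_two] at this
  exact this.ge

end CA.Ex2
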