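/-
Thompson's transfer lemma (extremal form for central involutions), via the sign of a permutation.
-/
import Cfsg.Agent.Lib.Extra2.Struct
import Cfsg.Agent.Lib.Classical.GroupAux

set_option autoImplicit false

namespace CA.Ex2

open Cfsg Subgroup CA CA.Inv CA.Core

variable {G : Type*} [Group G] {R R₀ : Subgroup G} {y : G}

theorem smul_mk_eq_iff (H : Subgroup G) (y g : G) :
    y • (g : G ⧸ H) = (g : G ⧸ H) ↔ g⁻¹ * y * g ∈ H := by
  rw [MulAction.Quotient.smul_coe, eq_comm, QuotientGroup.eq, smul_eq_mul, mul_assoc]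

/-- In a perfect group an involution fixes `≡ |G : H| mod 4` cosets of `H`. -/
theorem card_fixed_modEq_four [Finite G] (hG : commutator G = ⊤) (H : Subgroup G) (hy : y * y = 1) :
    Nat.card {c : G ⧸ H | y • c = c} ≡ H.index [MOD 4] := by
  classical
  haveI := Fintype.ofFinite (G ⧸ H)
  let φ := MulAction.toPermHom G (G ⧸ H)
  have h2 : φ y ^ 2 = 1 := by rw [← map_pow, pow_two, hy, map_one]
  have h1 : Equiv.Perm.sign (φ y) = 1 :=
    Abelianization.commutator_subset_ker (Equiv.Perm.sign.comp φ) (hG ▸ mem_top y)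
  rw [Equiv.Perm.sign_of_pow_two_eq_one h2] at h1
  have h3 := Equiv.Perm.card_fixedPoints_modEq (α := G ⧸ H) (f := fun x => φ y x) (p := 2) (n := 1)
    (funext fun x => congrArg (fun σ : Equiv.Perm _ => σ x) h2)
  have h4 : Fintype.card (Function.fixedPoints (φ y)) ≤ Fintype.card (G ⧸ H) := Fintype.card_subtype_le _
  have h5 : Even ((Fintype.card (G ⧸ H) - Fintype.card (Function.fixedPoints (φ y))) / 2) := by
    by_contra h5
    rw [(Nat.not_even_iff_odd.1 h5).neg_one_pow] at h1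
    exact absurd h1 (by decide)
  rw [index, Nat.card_eq_fintype_card (α := G ⧸ H),
    show Nat.card {c : G ⧸ H | y • c = c} = Fintype.card (Function.fixedPoints (φ y)) from
      Nat.card_eq_fintype_card]
  obtain ⟨k, hk⟩ := h5
  have h6 : Fintype.card (G ⧸ H) % 2 = Fintype.card (Function.fixedPoints (φ y)) % 2 := h3
  unfold Nat.ModEq
  omega

/-- Extremal Thompson transfer for an involution in the centre of a Sylow 2-subgroup. -/
theorem thompson_central [Finite G] (hG : commutator G = ⊤) (hR : SylowIn 2 R ⊤) (h0 : R₀ ≤ R)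
    (hc : Nat.card R = Nat.card R₀ * 2) (hy : y * y = 1) (hyR : y ∈ 𝐂(R)) :
    ∃ g ∈ 𝐍(R), g⁻¹ * y * g ∈ R₀ := by
  by_contra hne
  push Not at hne
  have hp := hR.isPGroup Nat.prime_two
  have hn : R ≤ 𝐍(R₀) := norm_of_relIndex_eq_prime hp h0 (relIndex_eq_of_card_eq_mul h0 hc)
  have h1 := card_fixed_modEq_four hG R₀ hy
  let S : SubMulAction R (G ⧸ R) :=
    { carrier := {c | ∃ g : G, g⁻¹ * y * g ∈ R₀ ∧ (g : G ⧸ R) = c}
      smul_mem' := by
        rintro r _ ⟨g, hg, rfl⟩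
        refine ⟨r * g, ?_, rfl⟩
        have := conj_inv_of (conj_eq_of_mem_cent (cents_symm (zpowers_le.2 hyR) r.2) (mem_zpowers y))
        rw [show ((r : G) * g)⁻¹ * y * (r * g) = g⁻¹ * ((r : G)⁻¹ * y * r) * g by group, this]
        exact hg }
  have h2 := hp.card_modEq_card_fixedPoints S
  have h3 : Nat.card (MulAction.fixedPoints R S) = 0 := by
    rw [Nat.card_eq_zero]
    left
    refine ⟨fun ⟨⟨_, g, hg, rfl⟩, hf⟩ => hne g ?_ hg⟩
    refine mem_normalizer_of_le_cj fun r hr => mem_cj.2 ((smul_mk_eq_iff R r g).1 ?_)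
    exact congrArg Subtype.val (hf ⟨r, hr⟩)
  have h4 : (QuotientGroup.mk : G → G ⧸ R₀) ⁻¹' {c : G ⧸ R₀ | y • c = c} =
      (QuotientGroup.mk : G → G ⧸ R) ⁻¹' (S : Set (G ⧸ R)) := by
    ext g
    rw [Set.mem_preimage, Set.mem_setOf_eq, smul_mk_eq_iff]
    refine ⟨fun h => ⟨g, h, rfl⟩, fun ⟨k, hk, e⟩ => ?_⟩
    have := conj_inv_mem_of_mem_normalizer (hn (QuotientGroup.eq.1 e)) hk
    convert this using 1; group
  have h5 := QuotientGroup.card_preimage_mk R₀ {c : G ⧸ R₀ | y • c = c}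
  rw [h4, QuotientGroup.card_preimage_mk, hc, mul_assoc] at h5
  have h6 := Nat.eq_of_mul_eq_mul_left (card_pos' R₀) h5
  have h7 := R.card_mul_index
  rw [← R₀.card_mul_index, hc, mul_assoc] at h7
  have h8 := Nat.eq_of_mul_eq_mul_left (card_pos' R₀) h7
  have h9 := hR.not_dvd Nat.prime_two
  rw [relIndex_top_right] at h9
  rw [h3] at h2
  change Nat.card (S : Set (G ⧸ R)) ≡ 0 [MOD 2] at h2
  unfold Nat.ModEq at h1 h2
  omega

theorem EZ.dihedral [Finite G] {Q : Subgroup G} {z x : G} (h : EZ Q z) (h8 : Nat.card Q = 8) (hx : x ∈ Q)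
    (hx2 : x * x = 1) (hxz : x ∉ zpowers z) : Nonempty (Q ≃* DihedralGroup 4) := by
  obtain ⟨q, hq, e⟩ := h.exists_conj hx hxz
  obtain ⟨r, hr, e1, e2⟩ : ∃ r ∈ Q, r * x * r⁻¹ = x * z ∧ r * r = z := by
    rcases h.sq_or hq with h1 | h1
    · refine ⟨q * x, mul_mem hq hx, by rw [← e]; group, ?_⟩
      calc q * x * (q * x) = (q * x * q⁻¹) * (q * q) * x := by group
        _ = z := by rw [e, h1, mul_one, h.comm hx, mul_cancel_right hx2]
    · exact ⟨q, hq, e, h1⟩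
  have ho : orderOf r = 4 := by
    have := orderOf_eq_prime_pow (x := r) (p := 2) (n := 1) (by rw [pow_one, pow_two, e2]; exact h.ne_one)
      (by rw [show 2 ^ (1 + 1) = 2 * 2 by norm_num, pow_mul, pow_two r, e2, pow_two, h.sq])
    simpa using this
  have ho' : orderOf (⟨r, hr⟩ : Q) = 4 := by rw [← ho, ← orderOf_coe]
  have hns : (⟨x, hx⟩ : Q) ∉ zpowers (⟨r, hr⟩ : Q) := by
    rintro ⟨k, hk⟩
    have hk' : r ^ k = x := by simpa using congrArg Subtype.val hk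
    rw [← hk'] at e1
    exact h.ne_one (by simpa [mul_assoc, (Commute.refl r).zpow_right k |>.eq] using e1)
  have hi : (zpowers (⟨r, hr⟩ : Q)).index = 2 := by
    have := (zpowers (⟨r, hr⟩ : Q)).card_mul_index
    rw [Nat.card_zpowers, ho', h8] at this
    omega
  refine Cl.nonempty_equiv_dihedral (⟨r, hr⟩ : Q) ⟨x, hx⟩ ho' (Subtype.ext hx2) (Subtype.ext ?_) hns
    fun g => ?_
  · show x * r * x = r⁻¹
    calc x * r * x = x * (r * x * r⁻¹) * (r * r) * r⁻¹ := by group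
      _ = r⁻¹ := by rw [e1, e2, mul_mul_cancel hx2, h.sq, one_mul]
  · rw [mul_mem_iff_of_index_two hi]; tauto

theorem commutator_eq_top_of_simple [IsSimpleGroup G] (h : ¬ IsMulCommutative G) : commutator G = ⊤ := by
  refine (IsSimpleGroup.eq_bot_or_eq_top_of_normal _ inferInstance).resolve_left fun e => h ⟨⟨fun a b => ?_⟩⟩
  have : a * b * a⁻¹ * b⁻¹ ∈ _root_.commutator G := comm_mem (mem_top a) (mem_top b)
  rwa [e, mem_bot, mul_inv_eq_one, mul_inv_eq_iff_eq_mul] at this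

theorem dihedral_of_phi [Finite G] (hG : commutator G = ⊤) {z : G} (hz : orderOf z = 2)
    (hR : SylowIn 2 𝐂[z] ⊤) (hΦ : phi 𝐂[z] = zpowers z) : Nonempty (↥𝐂[z] ≃* DihedralGroup 4) := by
  have hp := hR.isPGroup Nat.prime_two
  have hz2 := mul_self_of_orderOf hz
  have hN : 𝐍(𝐂[z]) ≤ 𝐂[z] := by
    have := norms_phi (le_rfl : 𝐍(𝐂[z]) ≤ 𝐍(𝐂[z]))
    rw [hΦ] at this
    exact this.trans (norm_zp2_le hz)
  have hder : ⁅𝐂[z], 𝐂[z]⁆ ≤ zpowers z := hΦ ▸ der_le_phi hp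
  have hsq : ∀ x ∈ 𝐂[z], x ^ 2 ∈ zpowers z := fun x hx => hΦ ▸ pow_mem_phi hp hx
  obtain ⟨g, hg, hgz⟩ : ∃ g : G, g * z * g⁻¹ ∈ 𝐂[z] ∧ g * z * g⁻¹ ≠ z := by
    by_contra hne
    push Not at hne
    have h1 := hR.inf_der_le_of_fusion (L := 𝐂[z]) fun x hx u _ hux => by
      have h2 : u⁻¹ * z * u ∈ 𝐂[x] := by
        rw [← mem_cj, cj_centralizer_singleton]; exact mem_cent1_comm.1 hux
      obtain ⟨k, hk, h3⟩ := exists_cj_sup_isPGroup (isPGroup_two_zpowers hz2)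
        (isPGroup_two_zpowers (x := u⁻¹ * z * u) (by simpa using conj_mul_self hz2 u⁻¹))
        (zpowers_le.2 (mem_cent1_comm.1 hx)) (zpowers_le.2 h2)
      obtain ⟨t, -, h4⟩ := hR.exists_cj_le (h3.piGrp Nat.prime_two) le_top
      rw [cj_zpowers, cj_le_iff'] at h4
      have h5 := hne t (h4 z (mem_sup_left (mem_zpowers z)))
      have h6 := hne (t * k * u⁻¹) (by
        have := h4 _ (mem_sup_right (mem_zpowers _))
        convert this using 1; group)
      refine ⟨u * k⁻¹, conj_eq_iff_mem_cent1.1 ?_, ?_⟩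
      · calc u * k⁻¹ * z * (u * k⁻¹)⁻¹ = (t * k * u⁻¹)⁻¹ * (t * z * t⁻¹) * (t * k * u⁻¹) := by group
          _ = z := by rw [h5, conj_inv_of h6]
      · calc u * k⁻¹ * x * (u * k⁻¹)⁻¹ = u * (k⁻¹ * x * k) * u⁻¹ := by group
          _ = _ := by rw [conj_inv_of (conj_eq_iff_mem_cent1.2 hk)]
    rw [der_top, hG, inf_top_eq] at h1
    exact (phi_lt (ne_bot_of_mem (self_mem_cent1 z) (ne_one_of_orderOf hz))).not_ge
      (hΦ ▸ h1.trans hder)
  set x := g * z * g⁻¹ with hx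
  have hx2 : x * x = 1 := conj_mul_self hz2 g
  have hx1 : x ≠ 1 := fun e => ne_one_of_orderOf hz (by simpa [hx] using e)
  have hxz : x ∉ zpowers z := not_mem_zp2 hz2 hx1 hgz
  have hΦ' : phi 𝐂[x] = zpowers x := by rw [← cj_centralizer_singleton, ← cj_phi, hΦ, cj_zpowers]
  have hp' : IsPGroup 2 ↥𝐂[x] := by rw [← cj_centralizer_singleton]; exact isPGroup_cj hp g
  have h0 : ∀ y ∈ zpowers z, y ∈ zpowers x → y = 1 := fun y h1 h2 =>
    ((mem_zp2 hx2).1 h2).resolve_right fun e => hxz (e ▸ h1)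
  have hab : IsMulCommutative ↥(𝐂[z] ⊓ 𝐂[x]) := abelian_iff_der.2 (le_bot_iff.1 fun y hy =>
    h0 y (hder (der_mono inf_le_left hy)) (hΦ' ▸ der_le_phi hp' (der_mono inf_le_right hy)))
  have hZ : 𝐙(𝐂[z]) = zpowers z := by
    refine le_antisymm (fun y hy => ?_) (zpowers_le.2 ⟨self_mem_cent1 z, mem_cent_iff_le_cent1.2 le_rfl⟩)
    by_contra hyz
    have hy2 : y * y = 1 := by
      rw [← pow_two]
      exact h0 _ (hsq y hy.1) (hΦ' ▸ pow_mem_phi hp' (cent_le_cent1 hg hy.2))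
    obtain ⟨M, -, h1, h2, h3⟩ := exists_covBy_not_mem (p := 2) (zpowers_le.2 (self_mem_cent1 z))
      hder hsq hy.1 hyz
    obtain ⟨k, hk, e⟩ := thompson_central hG hR h1.le h3 hy2 hy.2
    rw [conj_inv_of (conj_eq_iff_mem_cent1.2 (mem_cent_iff_le_cent1.1 hy.2 (hN hk)))] at e
    exact h2 e
  have hna : ¬ IsMulCommutative ↥𝐂[z] := fun e => hxz (hZ ▸ ⟨hg, abelian_iff.1 e hg⟩)
  have hE : EZ 𝐂[z] z := ⟨extraspecial_of_le_center hp hna (by rw [hΦ, hZ]) (hZ ▸ card_zp2 hz), hZ⟩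
  exact hE.dihedral (hE.abelian_cent1 hg hxz hab) hg hx2 hxz

end CA.Ex2
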